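import Cfsg.Agent.H98.Basic

/-! Functionals of trace zero for a doubly transitive coset action. -/

set_option autoImplicit false

namespace H98

open Subgroup

universe u

section perm

variable {ι C : Type*} [Fintype ι] [CommGroup C] {p : ℕ} [hp : Fact p.Prime]

theorem prod_eq_of_inv_fun (hC : ∀ k : C, k ^ p = 1) (σ : Function.End ι) (hσ : σ ^ p = 1) {o : ι}
    (ho : ∀ c, σ c = c ↔ c = o) (f : ι → C) (hf : ∀ c, f (σ c) = f c) : ∏ c, f c = f o := by
  classical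
  have key : ∀ k : C, k ^ (Finset.univ.filter fun c => f c = k).card = if k = f o then k else 1 := by
    intro k
    let τ : Function.End {c // f c = k} := fun c => ⟨σ c.1, (hf _).trans c.2⟩
    have h1 : ∀ n (c : {c // f c = k}), ((τ ^ n) c).1 = (σ ^ n) c.1 := by
      intro n
      induction n with
      | zero => intro c; rfl
      | succ n ih => intro c; rw [pow_succ, pow_succ]; exact ih (τ c)
    have h2 : τ ^ p ^ 1 = 1 := by
      funext c
      rw [pow_one]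
      exact Subtype.ext ((h1 p c).trans (by rw [hσ]; rfl))
    have h3 := Equiv.Perm.card_fixedPoints_modEq h2
    rw [Fintype.card_subtype] at h3
    rw [pow_eq_pow_of_modEq h3 (hC k)]
    split_ifs with e
    · have h4 : τ ⟨o, e.symm⟩ = ⟨o, e.symm⟩ := Subtype.ext ((ho o).2 rfl)
      have h5 : Fintype.card (Function.fixedPoints τ) = 1 := Fintype.card_eq_one_iff.2
        ⟨⟨⟨o, e.symm⟩, h4⟩, fun c => Subtype.ext (Subtype.ext ((ho _).1 (congrArg Subtype.val c.2)))⟩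
      rw [h5, pow_one]
    · rw [Fintype.card_eq_zero_iff.2 ⟨fun c => e (by
        rw [← (ho _).1 (congrArg Subtype.val c.2 : σ c.1.1 = c.1.1)]; exact c.1.2.symm)⟩, pow_zero]
  have h := Finset.prod_comp (s := Finset.univ) (id : C → C) f
  simp only [id] at h
  rw [h, Finset.prod_congr rfl fun k _ => key k, Finset.prod_ite_eq']
  simp

omit hp in
theorem eq_one_of_sq (hp2 : Odd p) (hC : ∀ k : C, k ^ p = 1) {k : C} (h : k * k = 1) : k = 1 := by
  obtain ⟨n, rfl⟩ := hp2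
  have := hC k
  rwa [pow_succ, pow_mul, pow_two, h, one_pow, one_mul] at this

end perm

variable {Γ Q C ι : Type*} [Group Γ] [Group Q] [CommGroup C] {p : ℕ}

/-- an equivariant family of functionals of trace zero -/
structure TF (p : ℕ) (α : Γ →* MulAut Q) [MulAction Γ ι] [Fintype ι] (Φ : Q →* (ι → C)) : Prop where
  eqv : ∀ h c x, Φ (α h x) (h • c) = Φ x c
  tr : ∀ x, ∏ c, Φ x c = 1
  ex : ∀ k : C, k ^ p = 1

/-- `A` fixes `o` and acts regularly modulo `K` on the other points -/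
structure RegA (p : ℕ) [MulAction Γ ι] (A K : Subgroup Γ) (o c₀ : ι) : Prop where
  ne : c₀ ≠ o
  fix : ∀ a ∈ A, a • o = o
  trans : ∀ c ≠ o, ∃ a ∈ A, a • c₀ = c
  reg : ∀ a ∈ A, ∀ c ≠ o, a • c = c → a ∈ K
  ker : ∀ k ∈ K, ∀ c : ι, k • c = c
  pow : ∀ a ∈ A, a ^ p ∈ K
  nle : ∃ a ∈ A, a ∉ K

namespace TF

variable [MulAction Γ ι] [Fintype ι] {α : Γ →* MulAut Q} {Φ : Q →* (ι → C)} {A K : Subgroup Γ}
  {o c₀ : ι} [hp : Fact p.Prime] (h : TF p α Φ) (r : RegA p A K o c₀)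
include h

omit hp in
theorem eqv' (g : Γ) (c : ι) (x : Q) : Φ (α g x) c = Φ x (g⁻¹ • c) := by
  rw [← h.eqv g (g⁻¹ • c) x, smul_inv_smul]

omit hp in
theorem conj_eq {x y : Q} (e : Φ x = Φ y) (g : Γ) : Φ (α g x) = Φ (α g y) := by
  funext c
  rw [h.eqv', h.eqv', e]

include r

theorem prod_eq {u : Γ} (hu : u ∈ A) (huK : u ∉ K) (f : ι → C) (hf : ∀ c, f (u • c) = f c) :
    ∏ c, f c = f o := by
  refine prod_eq_of_inv_fun h.ex (MulAction.toEndHom u : Function.End ι) ?_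
    (fun c => ⟨fun e => by_contra fun hc => huK (r.reg u hu c hc e), fun e => e ▸ r.fix u hu⟩) f hf
  rw [← map_pow]
  funext c
  exact r.ker _ (r.pow u hu) c

theorem base_eq_one {u : Γ} (hu : u ∈ A) (huK : u ∉ K) {x : Q} (e : Φ (α u x) = Φ x) :
    Φ x o = 1 := by
  rw [← h.prod_eq r hu huK (Φ x) fun c => by rw [← h.eqv u c x, e], h.tr]

theorem norm_zero (hp2 : Odd p) {x : Q} (Y : Subgroup (ι → C)) (j : Y → {c // c ≠ o})
    (hj : Function.Injective j) (hY : ∀ a ∈ A, Φ (α a x) * (Φ x)⁻¹ ∈ Y) : Φ x o = 1 := by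
  classical
  by_cases h1 : ∃ u ∈ A, u ∉ K ∧ Φ (α u x) = Φ x
  · obtain ⟨u, hu, huK, e⟩ := h1
    exact h.base_eq_one r hu huK e
  push Not at h1
  choose a ha using fun c : {c // c ≠ o} => r.trans c.1 c.2
  let y : {c // c ≠ o} → Y := fun c => ⟨_, hY _ (A.inv_mem (ha c).1)⟩
  have hy : Function.Injective y := fun c c' e => by
    have e1 : Φ (α (a c)⁻¹ x) = Φ (α (a c')⁻¹ x) := mul_right_cancel (congrArg Subtype.val e)
    have e2 := h.conj_eq e1 (a c')
    rw [← MulAut.mul_apply, ← MulAut.mul_apply, ← map_mul, ← map_mul, mul_inv_cancel, map_one,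
      MulAut.one_apply] at e2
    have e3 : a c' * (a c)⁻¹ ∈ K := by_contra fun hn =>
      h1 _ (A.mul_mem (ha c').1 (A.inv_mem (ha c).1)) hn e2
    have e4 := r.ker _ e3 c.1
    rw [← (ha c).2, mul_smul, inv_smul_smul, (ha c').2, (ha c).2] at e4
    exact Subtype.ext e4.symm
  have : Finite Y := Finite.of_injective j hj
  have := Fintype.ofFinite Y
  have hb : Function.Bijective y := by
    rw [Fintype.bijective_iff_injective_and_card]
    exact ⟨hy, le_antisymm (Fintype.card_le_of_injective y hy) (Fintype.card_le_of_injective j hj)⟩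
  have e1 : ∀ f : ι → C, ∏ c, f c = f o * ∏ c : {c // c ≠ o}, f c.1 := fun f => by
    rw [← Finset.mul_prod_erase Finset.univ f (Finset.mem_univ o)]
    congr 1
    exact Finset.prod_subtype _ (by simp) f
  obtain ⟨u, hu, huK⟩ := r.nle
  have e2 : ∏ _c : {c // c ≠ o}, Φ x c₀ = 1 := by
    have := h.prod_eq r hu huK (fun _ => Φ x c₀) fun _ => rfl
    rw [e1] at this
    exact mul_eq_left.1 this
  have e3 : ∏ z : Y, z.1 c₀ = 1 := by
    refine eq_one_of_sq hp2 h.ex ?_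
    conv_lhs => lhs; rw [← Equiv.prod_comp (Equiv.inv Y)]
    rw [← Finset.prod_mul_distrib]
    simp
  have e4 : ∀ c : {c // c ≠ o}, Φ x c.1 = (y c).1 c₀ * Φ x c₀ := fun c => by
    simp only [y, Pi.mul_apply, Pi.inv_apply, inv_mul_cancel_right, h.eqv', inv_inv, (ha c).2]
  have e5 := h.tr x
  rw [e1, Finset.prod_congr rfl fun c _ => e4 c, Finset.prod_mul_distrib, e2,
    hb.prod_comp fun z : Y => z.1 c₀, e3] at e5
  simpa using e5

theorem kill (hp2 : Odd p) {g : Γ} (hg : g • o = c₀) {s : Set Q}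
    (h1 : ∀ y ∈ s, ∀ a ∈ A, Φ (α a y) = Φ y)
    (h2 : ∀ y ∈ s, ∀ a ∈ A, ∃ y₁ ∈ s, ∃ y₂ ∈ s, α a (α g y) = y₁ * α g y₂) {y : Q} (hy : y ∈ s) :
    Φ y = 1 := by
  obtain ⟨u, hu, huK⟩ := r.nle
  have k1 : ∀ y ∈ s, Φ y o = 1 := fun y hy => h.base_eq_one r hu huK (h1 y hy u hu)
  have k2 : ∀ y ∈ s, ∀ c ≠ o, Φ y c = Φ y c₀ := fun y hy c hc => by
    obtain ⟨a, ha, rfl⟩ := r.trans c hc
    rw [← h.eqv a c₀ y, h1 y hy a ha]
  have k3 : ∀ y ∈ s, Φ (α g y) c₀ = 1 := fun y hy => by rw [← hg, h.eqv, k1 y hy]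
  have k4 : ∀ y ∈ s, ∀ c ≠ c₀, Φ (α g y) c = Φ y c₀ := fun y hy c hc => by
    rw [h.eqv', k2 y hy _ fun e => hc (by rw [← hg, ← e, smul_inv_smul])]
  have n1 : u • c₀ ≠ c₀ := fun e => huK (r.reg u hu _ r.ne e)
  have n2 : u • c₀ ≠ o := fun e => r.ne (smul_left_cancel u (e.trans (r.fix u hu).symm))
  have n3 : u⁻¹ • c₀ ≠ c₀ := fun e => n1 (by rw [← e, smul_inv_smul, e])
  obtain ⟨y₁, hy₁, y₂, hy₂, e⟩ := h2 y hy u hu
  have e0 := congrArg Φ e
  rw [map_mul] at e0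
  have e1 := congrFun e0 o
  have e2 := congrFun e0 c₀
  have e3 := congrFun e0 (u • c₀)
  rw [Pi.mul_apply] at e1 e2 e3
  rw [h.eqv', r.fix _ (A.inv_mem hu), k4 y hy _ r.ne.symm, k1 _ hy₁, k4 _ hy₂ _ r.ne.symm, one_mul] at e1
  rw [h.eqv', k4 y hy _ n3, k3 _ hy₂, mul_one] at e2
  rw [h.eqv, k3 y hy, k2 _ hy₁ _ n2, k4 _ hy₂ _ n1, ← e1, ← e2] at e3
  have e4 := eq_one_of_sq hp2 h.ex e3.symm
  funext c
  by_cases hc : c = o
  · rw [hc, k1 y hy]; rfl
  · rw [k2 y hy c hc, e4]; rfl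

end TF

/-- coordinates of an `M`-invariant homomorphism along the cosets of `M` -/
noncomputable def cof (α : Γ →* MulAut Q) (M : Subgroup Γ) (φ : Q →* C) : Q →* (Γ ⧸ M → C) :=
  MonoidHom.pi fun c => φ.comp (α (c.out)⁻¹).toMonoidHom

theorem cof_mk {α : Γ →* MulAut Q} {M : Subgroup Γ} {φ : Q →* C}
    (hφ : ∀ m ∈ M, ∀ x, φ (α m x) = φ x) (g : Γ) (x : Q) :
    cof α M φ x (g : Γ ⧸ M) = φ (α g⁻¹ x) := by
  obtain ⟨m, e⟩ := QuotientGroup.mk_out_eq_mul M g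
  change φ (α ((g : Γ ⧸ M).out)⁻¹ x) = _
  rw [e, mul_inv_rev, map_mul, MulAut.mul_apply, hφ _ (M.inv_mem m.2)]

theorem cof_smul {α : Γ →* MulAut Q} {M : Subgroup Γ} {φ : Q →* C}
    (hφ : ∀ m ∈ M, ∀ x, φ (α m x) = φ x) (h : Γ) (c : Γ ⧸ M) (x : Q) :
    cof α M φ (α h x) (h • c) = cof α M φ x c := by
  induction c using QuotientGroup.induction_on with
  | _ g =>
  rw [MulAction.Quotient.smul_mk, smul_eq_mul, cof_mk hφ, cof_mk hφ, ← MulAut.mul_apply, ← map_mul,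
    mul_inv_rev, inv_mul_cancel_right]

theorem exists_tf [hp : Fact p.Prime] {C : Type u} [CommGroup C] [Finite C] (hC : IsPGroup p C)
    {α : Γ →* MulAut Q} {M : Subgroup Γ} [Fintype (Γ ⧸ M)] (hM : ¬ p ∣ M.index) {φ : Q →* C}
    (hφ : ∀ m ∈ M, ∀ x, φ (α m x) = φ x) (hne : ¬ ∀ g x, φ (α g x) = φ x) :
    ∃ (C' : Type u) (_ : CommGroup C') (Φ : Q →* (Γ ⧸ M → C')), TF p α Φ ∧
      ∃ x, Φ x ((1 : Γ) : Γ ⧸ M) ≠ 1 := by
  let τ : Q →* C := ∏ c : Γ ⧸ M, (Pi.evalMonoidHom (fun _ => C) c).comp (cof α M φ)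
  have t1 : ∀ x, τ x = ∏ c, cof α M φ x c := fun x => by
    simp only [τ, MonoidHom.finsetProd_apply]; rfl
  have t2 : ∀ g x, τ (α g x) = τ x := fun g x => by
    rw [t1, t1, ← Equiv.prod_comp (MulAction.toPerm g)]
    exact Finset.prod_congr rfl fun c _ => cof_smul hφ g c x
  let φ₀ : Q →* C := φ ^ M.index / τ
  have t3 : ∀ x, φ₀ x = φ x ^ M.index / τ x := fun x => rfl
  let R := (powMonoidHom p : φ₀.range →* φ₀.range).range
  let φ₁ : Q →* φ₀.range ⧸ R := (QuotientGroup.mk' R).comp φ₀.rangeRestrict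
  have t4 : ∀ x y, φ₀ x = φ₀ y → φ₁ x = φ₁ y := fun x y e =>
    congrArg (QuotientGroup.mk' R) (Subtype.ext e)
  have t5 : ∀ m ∈ M, ∀ x, φ₁ (α m x) = φ₁ x := fun m hm x => t4 _ _ (by rw [t3, t3, hφ m hm, t2])
  refine ⟨φ₀.range ⧸ R, inferInstance, cof α M φ₁, ⟨cof_smul t5, fun x => ?_, fun k => ?_⟩, ?_⟩
  · have e : ∏ c : Γ ⧸ M, φ₀.rangeRestrict (α (c.out)⁻¹ x) = 1 := Subtype.ext (by
      rw [← coe_subtype, map_prod, map_one]
      change ∏ c : Γ ⧸ M, φ₀ (α (c.out)⁻¹ x) = 1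
      simp only [t3, t2, Finset.prod_div_distrib, Finset.prod_pow, Finset.prod_const,
        Finset.card_univ]
      rw [← Nat.card_eq_fintype_card, ← index_eq_card, t1]
      exact div_self' _)
    have := congrArg (QuotientGroup.mk' R) e
    rwa [map_prod, map_one] at this
  · obtain ⟨y, rfl⟩ := QuotientGroup.mk'_surjective R k
    rw [← map_pow]
    exact (QuotientGroup.eq_one_iff _).2 ⟨y, rfl⟩
  · by_contra hn
    push Not at hn
    have k1 : ∀ n, ∀ x, ∃ y, φ₀ x = φ₀ y ^ p ^ n := by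
      intro n
      induction n with
      | zero => exact fun x => ⟨x, by simp⟩
      | succ n ih =>
        intro x
        obtain ⟨y, e⟩ := ih x
        have := hn y
        rw [cof_mk t5, inv_one, map_one, MulAut.one_apply] at this
        obtain ⟨⟨_, z, rfl⟩, e'⟩ := (QuotientGroup.eq_one_iff _).1 this
        refine ⟨z, ?_⟩
        rw [e, pow_succ', pow_mul]
        congr 1
        exact (congrArg Subtype.val e').symm
    obtain ⟨n, hn⟩ := hC.exists_card_eq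
    have k2 : ∀ x, φ x ^ M.index = τ x := fun x => by
      obtain ⟨y, e⟩ := k1 n x
      rwa [← hn, pow_card_eq_one', t3, div_eq_one] at e
    refine hne fun g x => (hC.powEquiv ((Nat.Prime.coprime_iff_not_dvd hp.out).2 hM)).injective ?_
    simp only [IsPGroup.powEquiv_apply, k2, t2]

end H98
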